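import Cfsg.Agent.H794.ImcSU

/-!
# Cuspidal characters of `GL_n(q)` are nonnegative at `p`-elements if `p ∤ (q^n - 1) / (q - 1)` (helper794)

`cusp_nonneg_split` : all `p`-elements of `L` lie in `F`.
-/

set_option autoImplicit false

open Polynomial Cfsg
open scoped ComplexConjugate ComplexOrder

namespace Cfsg.Agent.H794.Imc

open Cfsg.Agent.H139.Cusp Cfsg.Agent.H53.HC Cfsg.Agent.H477.HC

universe u v w

attribute [local instance] fintypeHom fintypeSub finite_quot

theorem prod_sign {x : ℕ → ℂ} (hx : ∀ i, 1 ≤ x i) (k : ℕ) :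
    0 ≤ (-1) ^ k * ∏ i ∈ Finset.range k, (1 - x i) := by
  have e : (-1 : ℂ) ^ k * ∏ i ∈ Finset.range k, (1 - x i) = ∏ i ∈ Finset.range k, (x i - 1) := by
    rw [← Finset.card_range k, ← Finset.prod_const, Finset.card_range, ← Finset.prod_mul_distrib]
    refine Finset.prod_congr rfl fun i _ => ?_
    ring
  rw [e]
  exact Finset.prod_nonneg fun i _ => sub_nonneg.2 (hx i)

theorem cusp_nonneg_split {F : Type u} [Field F] [Finite F] {L : Type w} [Field L] [Finite L] [Algebra F L]
    (θ : L →*₀ ℂ) {p : ℕ} (hpF : (p : F) ≠ 0) {n : ℕ} (hn : 0 < n) (hL : Module.finrank F L = n)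
    (hθ : ∀ x : L, (∃ j : ℕ, x ^ (p ^ j) = 1) → θ x = 1 ∧ ∃ y : F, algebraMap F L y = x)
    {V : Type v} [AddCommGroup V] [Module F V] [Finite V] (hV : Module.finrank F V = n) {g : V →ₗ[F] V} {j : ℕ}
    (hg : g ^ (p ^ j) = 1) : 0 ≤ cusp L θ g := by
  classical
  have hnt : Nontrivial V := Module.nontrivial_of_finrank_pos (R := F) (by rw [hV]; exact hn)
  have hfd : FiniteDimensional F V := Module.Finite.of_finite
  unfold cusp
  rw [hV]
  rcases kap_eq_zero_or (lb L θ) (lb_mul L θ) g with ⟨f, m, hf, hirr, hm, hfm⟩ | h0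
  · obtain ⟨k, hk⟩ := exists_finrank_ker hirr (g := g) (by rw [hfm]; exact dvd_pow_self f hm.ne')
    rw [kap_formula (lb L θ) (lb_mul L θ) hf hirr (aeval_pow_of_charpoly hfm) hk]
    -- semisimplicity
    have hint : IsIntegral F g := Algebra.IsIntegral.isIntegral g
    have h1 : minpoly F g ∣ X ^ (p ^ j) - 1 := by
      refine minpoly.dvd F g ?_
      rw [map_sub, map_pow, aeval_X, map_one, hg, sub_self]
    have hsep : (X ^ (p ^ j) - 1 : F[X]).Separable := by
      have h2 : ((p ^ j : ℕ) : F) ≠ 0 := by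
        rw [Nat.cast_pow]
        exact pow_ne_zero _ hpF
      have h3 := Polynomial.separable_X_pow_sub_C (F := F) (n := p ^ j) (1 : F) h2 one_ne_zero
      rwa [map_one] at h3
    have hsq : Squarefree (minpoly F g) := hsep.squarefree.squarefree_of_dvd h1
    have h4 : minpoly F g ∣ f := by
      have h5 : minpoly F g ∣ f ^ m := by
        rw [← hfm]
        exact LinearMap.minpoly_dvd_charpoly g
      exact (hsq.dvd_pow_iff_dvd hm.ne').1 h5
    have h6 : aeval g f = 0 := by
      obtain ⟨r, hr⟩ := h4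
      rw [hr, map_mul, minpoly.aeval, zero_mul]
    have h7 : f ∣ X ^ (p ^ j) - 1 := by
      refine dvd_trans ?_ h1
      obtain ⟨r, hr⟩ := h4
      have h8 : IsUnit r := (hirr.isUnit_or_isUnit hr).resolve_left (minpoly.not_isUnit F g)
      rw [hr]
      exact (IsUnit.mul_right_dvd h8).2 dvd_rfl
    have h9 : f.natDegree * (k + 1) = n := by
      rw [← hk, h6, LinearMap.ker_zero, finrank_top, hV]
    have hroot : ∀ x : L, aeval x f = 0 → x ^ (p ^ j) = 1 := by
      intro x h13
      obtain ⟨r, hr⟩ := h7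
      have h16 := congrArg (aeval x) hr
      rw [map_mul, h13, zero_mul, map_sub, map_pow, aeval_X, map_one] at h16
      exact sub_eq_zero.1 h16
    -- the degree of `f` is one
    have hd1 : f.natDegree = 1 := by
      have hsp := splits_of_natDegree_dvd (L := L) hirr (by rw [hL, ← h9]; exact dvd_mul_right _ _)
      have hdeg : (f.map (algebraMap F L)).degree ≠ 0 := by
        rw [degree_map]
        exact (degree_pos_of_irreducible hirr).ne'
      obtain ⟨x, hx⟩ := hsp.exists_eval_eq_zero hdeg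
      have hx0 : aeval x f = 0 := by rwa [eval_map, ← aeval_def] at hx
      obtain ⟨-, y, rfl⟩ := hθ x ⟨j, hroot x hx0⟩
      have hy : f.IsRoot y := by
        rw [aeval_algebraMap_apply, map_eq_zero] at hx0
        exact hx0
      have h10 := degree_eq_one_of_irreducible_of_root hirr hy
      exact natDegree_eq_of_degree_eq_some h10
    have hk1 : n - 1 = k := by rw [hd1, one_mul] at h9; omega
    rw [hk1]
    have e : (-1 : ℂ) ^ k * (lb L θ f * ∏ i ∈ Finset.range k, (1 - (Nat.card F : ℂ) ^ (f.natDegree * (i + 1)))) =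
        lb L θ f * ((-1 : ℂ) ^ k * ∏ i ∈ Finset.range k, (1 - (Nat.card F : ℂ) ^ (f.natDegree * (i + 1)))) := by ring
    rw [e]
    refine mul_nonneg ?_ ?_
    · unfold lb
      refine Multiset.sum_nonneg fun y hy => ?_
      obtain ⟨x, hx, rfl⟩ := Multiset.mem_map.1 hy
      have h13 : aeval x f = 0 := by
        have h14 := (mem_roots'.1 hx).2
        rwa [IsRoot.def, eval_map, ← aeval_def] at h14
      rw [(hθ x ⟨j, hroot x h13⟩).1]
      exact zero_le_one
    · refine prod_sign (x := fun i => (Nat.card F : ℂ) ^ (f.natDegree * (i + 1))) (fun i => ?_) k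
      refine one_le_pow₀ ?_
      have h17 : 1 ≤ Nat.card F := Nat.card_pos
      exact_mod_cast h17
  · rw [h0, mul_zero]

theorem psi_nn_split {F : Type u} [Field F] [Finite F] {L : Type w} [Field L] [Finite L] [Algebra F L]
    (θ : L →*₀ ℂ) {p : ℕ} (hpF : (p : F) ≠ 0) {n : ℕ} (hn : 0 < n) (hL : Module.finrank F L = n)
    (hθ : ∀ x : L, (∃ j : ℕ, x ^ (p ^ j) = 1) → θ x = 1 ∧ ∃ y : F, algebraMap F L y = x) :
    NN p (psi (n := n) (F := F) L θ) := by
  constructor
  · rintro A ⟨j, hj⟩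
    unfold psi cuspMat
    refine cusp_nonneg_split θ hpF hn hL hθ (V := Fin n → F) (by rw [Module.finrank_fin_fun]) (j := j) ?_
    have h1 : A ^ (p ^ j) = 1 := by rw [← hj]; exact pow_orderOf_eq_one A
    have h2 := congrArg (fun B : GL (Fin n) F => Matrix.toLin' (B : Matrix (Fin n) (Fin n) F)) h1
    simp only [Units.val_pow_eq_pow_val, Units.val_one, Matrix.toLin'_one] at h2
    have h3 : (Matrix.toLin' (A : Matrix (Fin n) (Fin n) F)) ^ (p ^ j) =
        Matrix.toLin' ((A : Matrix (Fin n) (Fin n) F) ^ (p ^ j)) :=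
      (map_pow (Matrix.toLinAlgEquiv' (R := F) (n := Fin n)) _ _).symm
    rw [h3, h2]
    rfl
  · rw [psi_one L θ hn, degP_eq_Ico]
    have h3 : 0 < ∏ i ∈ Finset.Ico 1 n, (Nat.card F ^ i - 1) := by
      refine Finset.prod_pos fun i hi => ?_
      have h4 := (Finset.mem_Ico.1 hi).1
      have h5 : 1 < Nat.card F ^ i := Nat.one_lt_pow (by omega) Finite.one_lt_card
      omega
    exact_mod_cast h3

/-- the `p`-elements of `L` lie in `F` if `p ∤ (q^n-1)/(q-1)` -/
theorem mem_base_of_pow {F : Type u} [Field F] [Finite F] {L : Type w} [Field L] [Finite L] [Algebra F L]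
    {p : ℕ} (hp : p.Prime) {M : ℕ} (hN : Nat.card L - 1 = (Nat.card F - 1) * M) (hM : ¬ p ∣ M)
    (x : L) (hx : ∃ j : ℕ, x ^ (p ^ j) = 1) : ∃ y : F, algebraMap F L y = x := by
  obtain ⟨j, hj⟩ := hx
  have hx0 : x ≠ 0 := by
    rintro rfl
    rw [zero_pow (pow_ne_zero _ hp.ne_zero)] at hj
    exact zero_ne_one hj
  let y : Lˣ := Units.mk0 x hx0
  have h1 : y ^ (p ^ j) = 1 := Units.ext (by rw [Units.val_pow_eq_pow_val, Units.val_mk0, hj, Units.val_one])
  have h2 : orderOf y ∣ p ^ j := orderOf_dvd_of_pow_eq_one h1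
  have h3 : orderOf y ∣ (Nat.card F - 1) * M := by
    rw [← hN, ← Nat.card_units]
    exact orderOf_dvd_natCard y
  have h4 : (orderOf y).Coprime M := by
    obtain ⟨i, -, hi⟩ := (Nat.dvd_prime_pow hp).1 h2
    rw [hi]
    exact Nat.Coprime.pow_left _ ((Nat.Prime.coprime_iff_not_dvd hp).2 hM)
  have h5 : orderOf y ∣ Nat.card F - 1 := h4.dvd_of_dvd_mul_right h3
  have h6 : x ^ Nat.card F = x := by
    have h7 := orderOf_dvd_iff_pow_eq_one.1 h5
    have h8 := congrArg Units.val h7
    rw [Units.val_pow_eq_pow_val, Units.val_mk0, Units.val_one] at h8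
    have h9 : Nat.card F = (Nat.card F - 1) + 1 := by
      have : 0 < Nat.card F := Nat.card_pos
      omega
    rw [h9, pow_succ, h8, one_mul]
  have h10 := (Cfsg.Agent.H139.Cusp.pow_eq_self_iff (F := F) x 1).1 (by rw [pow_one]; exact h6)
  have h11 : (minpoly F x).natDegree = 1 := Nat.dvd_one.1 h10
  have h12 : x ∈ (algebraMap F L).range := by
    rw [← minpoly.natDegree_eq_one_iff]
    exact h11
  exact h12

end Cfsg.Agent.H794.Imc
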